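import Cfsg.Agent.Comp.Extra

/-!
Relators that follow from other relators, read off in the presented group.
-/

set_option autoImplicit false

namespace Cfsg.Agent.Comp

/-- the relators `D` follow from the relators `R` -/
def Derives.{u} (R D : List (List ℕ)) : Prop :=
  ∀ (G : Type u) [Group G] (t : ℕ → G), Sat t R → Sat t D

theorem derives_of_pres.{u} {L : ℕ} {R D : List (List ℕ)} (hR : ∀ w ∈ R, ∀ x ∈ w, x < L)
    (hD : ∀ w ∈ D, ∀ x ∈ w, x < L) (h : Sat (presS L R) D) : Derives.{u} R D := by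
  intro G _ t ht w hw
  obtain ⟨φ, hφ⟩ := pres_univ hR t ht
  rw [← ev_congr (s := fun x => φ (presS L R x)) fun x hx => hφ x (hD w hw x hx), ← map_ev,
    h w hw, map_one]

/-- the use of a derivation after renaming the letters -/
theorem Derives.use.{u} {R D : List (List ℕ)} (h : Derives.{u} R D) {G : Type u} [Group G]
    {s : ℕ → G} {R₀ D₀ : List (List ℕ)} (hs : Sat s R₀) (f : List ℕ)
    (h1 : ∀ w ∈ R, w.map (nth 0 f) ∈ R₀) (h2 : ∀ w ∈ D₀, w ∈ D.map (List.map (nth 0 f))) :
    Sat s D₀ := by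
  generalize nth 0 f = F at h1 h2
  intro w hw
  obtain ⟨u, hu, rfl⟩ := List.mem_map.mp (h2 w hw)
  rw [ev_map]
  exact h G _ (hs.reindex F h1) u hu

end Cfsg.Agent.Comp
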