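import Cfsg.Agent.Comp.Sign
import Cfsg.Agent.Schur.Parts

/-!
Networks with labels in `ZMod 3`: a permutation representation on `N` points is lifted to
`3 N` points, every letter inverting the labels. This gives triple covers.
-/

set_option autoImplicit false

namespace Cfsg.Agent.Comp.Lab
open Subgroup

/-- the value of two bits -/
def val (a b : Bool) : ZMod 3 := if a then 1 else if b then 2 else 0

/-- the label of a point -/
def lab (N a b i : ℕ) : ZMod 3 := if i < N then val (a.testBit i) (b.testBit i) else 0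

/-- the lifted permutation -/
def tw (σ : Equiv.Perm ℕ) (f : ℕ → ZMod 3) : Equiv.Perm (ℕ × ZMod 3) where
  toFun p := (σ p.1, f p.1 - p.2)
  invFun p := (σ⁻¹ p.1, f (σ⁻¹ p.1) - p.2)
  left_inv p := by simp
  right_inv p := by simp

/-- the lifted letters -/
noncomputable def tl (N : ℕ) (T : List Net) (A B : List ℕ) (x : ℕ) : Equiv.Perm (ℕ × ZMod 3) :=
  tw (sig T x) (lab N (nth 0 A x) (nth 0 B x))

/-- the state after a word -/
def St (N : ℕ) (π : Equiv.Perm (ℕ × ZMod 3)) (σ : Equiv.Perm ℕ) (ε : ZMod 3) (a b : ℕ) : Prop :=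
  (∀ i < N, ¬ (a.testBit i ∧ b.testBit i)) ∧ ∀ i c, π (i, c) = (σ i, ε * (c + lab N a b i))

theorem St.one (N : ℕ) : St N 1 1 1 0 0 := ⟨by simp, fun i c => by simp [lab, val]⟩

noncomputable def step (T : List Net) (A B : List Nat) (x a b : Nat) (k : Nat → Nat → Bool) : Bool :=
  frc (((nth Net.nil T x).box (nat_lit 1)).f a) fun a1 =>
  frc (((nth Net.nil T x).box (nat_lit 1)).f b) fun b1 =>
  frc (Nat.xor (Nat.lor a1 (nth (nat_lit 0) B x)) (Nat.lor b1 (nth (nat_lit 0) A x))) fun t =>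
  frc (Nat.xor (Nat.lor a1 (nth (nat_lit 0) A x)) t) fun a2 =>
  frc (Nat.xor (Nat.lor b1 (nth (nat_lit 0) B x)) t) fun b2 => k a2 b2

noncomputable def run (T : List Net) (A B : List Nat) (a' b' : Nat) (w : List Nat) :
    Nat → Nat → Bool :=
  @List.rec Nat (fun _ => Nat → Nat → Bool) (fun a b => band (Nat.beq a a') (Nat.beq b b'))
    (fun x _ ih a b => step T A B x a b ih) w

/-- the labels are given by disjoint bit sets -/
def Val (A B : List ℕ) : Prop := ∀ x i, ¬ ((nth 0 A x).testBit i ∧ (nth 0 B x).testBit i)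

theorem val_of {A B : List ℕ} (h : ∀ x < A.length, nth 0 A x &&& nth 0 B x = 0) : Val A B := by
  intro x i ⟨h1, h2⟩
  by_cases hx : x < A.length
  · have := congrArg (fun y => y.testBit i) (h x hx)
    simp [Nat.testBit_and, h1, h2] at this
  · rw [nth_eq, List.getD_eq_default _ _ (not_lt.mp hx)] at h1
    simp at h1

theorem add3 (a1 b1 la lb : Bool) (h1 : ¬ (a1 ∧ b1)) (h2 : ¬ (la ∧ lb)) :
    ¬ (((a1 || la) ^^ ((a1 || lb) ^^ (b1 || la))) ∧ ((b1 || lb) ^^ ((a1 || lb) ^^ (b1 || la)))) ∧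
    val ((a1 || la) ^^ ((a1 || lb) ^^ (b1 || la))) ((b1 || lb) ^^ ((a1 || lb) ^^ (b1 || la))) =
      -(val la lb + val a1 b1) := by
  revert a1 b1 la lb; decide

theorem run_sound {N : ℕ} {T : List Net} (hT : TOK N T) {A B : List ℕ} (hV : Val A B) {a' b' : ℕ}
    (w : List ℕ) {π : Equiv.Perm (ℕ × ZMod 3)} {σ : Equiv.Perm ℕ} {ε : ZMod 3} {a b : ℕ}
    (hs : St N π σ ε a b) (h : run T A B a' b' w a b = true) :
    St N (π * ev (tl N T A B) w) (σ * ev (sig T) w) (ε * (-1) ^ w.length) a' b' := by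
  induction w generalizing π σ ε a b with
  | nil =>
    have h' : band (Nat.beq a a') (Nat.beq b b') = true := h
    rw [band_eq] at h'
    rw [← Nat.eq_of_beq_eq_true h'.1, ← Nat.eq_of_beq_eq_true h'.2]
    simpa using hs
  | cons x w ih =>
    have h' : step T A B x a b (run T A B a' b' w) = true := h
    simp only [step, frc_eq] at h'
    have bx : ∀ y, ∀ i < N, (((nth Net.nil T x).box (nat_lit 1)).f y).testBit i =
        y.testBit (sig T x i) := fun y i hi => by
      have := Net.testBit_box (K := 1) (k := 0) (hT.nth x) y one_pos hi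
      rw [repl_one] at this
      simpa [sig] using this
    have := ih (π := π * tl N T A B x) (σ := σ * sig T x) (ε := -ε) ?_ h'
    · rw [ev_cons, ev_cons, ← mul_assoc, ← mul_assoc, List.length_cons, pow_succ', ← mul_assoc]
      simpa using this
    have key := fun i (hi : i < N) => add3 (a.testBit (sig T x i)) (b.testBit (sig T x i))
      ((nth 0 A x).testBit i) ((nth 0 B x).testBit i) (hs.1 _ (Bd.lt (hT.sig_mem x) hi)) (hV x i)
    refine ⟨fun i hi => ?_, fun i c => ?_⟩
    · simp only [Nat.xor_eq, Nat.lor_eq, Nat.testBit_xor, Nat.testBit_or, bx _ i hi]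
      exact (key i hi).1
    · rw [Equiv.Perm.mul_apply]
      change π (sig T x i, lab N (nth 0 A x) (nth 0 B x) i - c) = _
      rw [hs.2, Equiv.Perm.mul_apply]
      congr 1
      by_cases hi : i < N
      · simp only [lab, if_pos hi, if_pos (Bd.lt (hT.sig_mem x) hi), Nat.xor_eq, Nat.lor_eq,
          Nat.testBit_xor, Nat.testBit_or, bx _ i hi]
        rw [show nth (nat_lit 0) A x = nth 0 A x from rfl, show nth (nat_lit 0) B x = nth 0 B x from rfl,
          (key i hi).2]
        ring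
      · rw [hT.sig_mem x i (not_lt.mp hi)]
        simp only [lab, if_neg hi]
        ring

/-- the translation of the labels -/
def zeta (N : ℕ) : Equiv.Perm (ℕ × ZMod 3) where
  toFun p := (p.1, p.2 + if p.1 < N then 1 else 0)
  invFun p := (p.1, p.2 - if p.1 < N then 1 else 0)
  left_inv p := by simp
  right_inv p := by simp

theorem zeta_apply (N : ℕ) (p : ℕ × ZMod 3) :
    zeta N p = (p.1, p.2 + if p.1 < N then 1 else 0) := rfl

theorem zeta3 (N : ℕ) : zeta N ^ 3 = 1 := by
  ext1 p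
  simp only [pow_succ, pow_zero, one_mul, Equiv.Perm.mul_apply, zeta_apply, Equiv.Perm.one_apply]
  refine Prod.ext rfl ?_
  split_ifs
  · exact (by decide : ∀ c : ZMod 3, c + 1 + 1 + 1 = c) _
  · simp

theorem zeta_ne {N : ℕ} (h : 0 < N) : zeta N ≠ 1 := fun e => by
  have := congrArg (fun π : Equiv.Perm (ℕ × ZMod 3) => (π (0, 0)).2) e
  simp [zeta_apply, h] at this

theorem zeta_inv {N : ℕ} {T : List Net} (hT : TOK N T) (A B : List ℕ) (x : ℕ) :
    zeta N * tl N T A B x * zeta N = tl N T A B x := by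
  ext1 p
  simp only [Equiv.Perm.mul_apply, zeta_apply]
  change (sig T x p.1, _ - _ + _) = (sig T x p.1, _ - _)
  congr 1
  by_cases hi : p.1 < N
  · have := Bd.lt (hT.sig_mem x) hi
    change _ - (p.2 + if p.1 < N then 1 else 0) + (if sig T x p.1 < N then 1 else 0) = _
    rw [if_pos hi, if_pos this]; ring
  · have := hT.sig_mem x _ (not_lt.mp hi)
    change _ - (p.2 + if p.1 < N then 1 else 0) + (if sig T x p.1 < N then 1 else 0) = _
    rw [this, if_neg hi]; ring

theorem St.eq_one {N : ℕ} {π : Equiv.Perm (ℕ × ZMod 3)} (h : St N π 1 1 0 0) : π = 1 := by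
  ext1 ⟨i, c⟩
  rw [h.2]; simp [lab, val]

theorem St.eq_zeta {N : ℕ} {π : Equiv.Perm (ℕ × ZMod 3)} (h : St N π 1 1 (ivl 0 N) 0) :
    π = zeta N := by
  ext1 ⟨i, c⟩
  rw [h.2, zeta_apply]
  by_cases hi : i < N <;> simp [lab, val, hi, testBit_ivl]

/-- the check of relators -/
noncomputable def rels (T : List Net) (A B : List Nat) (R : List (List Nat)) : Bool :=
  lall (fun w => run T A B (nat_lit 0) (nat_lit 0) w (nat_lit 0) (nat_lit 0)) R

theorem sat_of_rels {N : ℕ} {T : List Net} (hT : TOK N T) {A B : List ℕ} (hV : Val A B)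
    {R R' : List (List ℕ)} (hs : Sat (sig T) R') (hR : ∀ w ∈ R, w ∈ R' ∧ w.length % 2 = 0)
    (h : rels T A B R = true) : Sat (tl N T A B) R := fun w hw => by
  have := run_sound hT hV w (St.one N) ((lall_eq _ _).mp h w hw)
  rw [hs w (hR w hw).1, Even.neg_one_pow (Nat.even_iff.mpr (hR w hw).2)] at this
  simpa using St.eq_one (by simpa using this)

/-- cancellation of squares of letters -/
def rd : List ℕ → List ℕ
  | [] => []
  | x :: w => match rd w with
    | [] => [x]
    | y :: u => if y = x then u else x :: y :: u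

theorem ev_rd {G : Type*} [Group G] {s : ℕ → G} {w : List ℕ} (h : ∀ x ∈ w, s x * s x = 1) :
    ev s (rd w) = ev s w := by
  induction w with
  | nil => rfl
  | cons x w ih =>
    have e := ih fun y hy => h y (List.mem_cons_of_mem _ hy)
    rw [ev_cons, ← e, rd]
    cases rd w with
    | nil => simp
    | cons y u =>
      dsimp only
      split_ifs with h1
      · rw [h1, ev_cons, ← mul_assoc, h x List.mem_cons_self, one_mul]
      · simp

/-- a triple cover from lifted letters -/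
theorem low_of_lift {G M : Type} [Group G] [Group M] [Finite G] {s : ℕ → G} {L : ℕ}
    {R R₀ : List (List ℕ)} {z : List ℕ} (hp : IsPres s L R) (hL : ∀ w ∈ R, ∀ x ∈ w, x < L)
    (hR : ∀ w ∈ R, w ∈ R₀ ∨ w = z) (hz : z ∈ R) {t : ℕ → M} (ht : Sat t R₀)
    (h3 : ev t z ^ 3 = 1) (hne : ev t z ≠ 1) (hi : ∀ x, ev t z * t x * ev t z = t x)
    {ε : G →* ℤˣ} (hε : ∀ x < L, ε (s x) = -1) {I J : List (List ℕ)}
    (hI : ∀ w ∈ I, w.length % 2 = 0 ∧ w ++ w ∈ R ∧ w ++ w ∈ R₀)
    (hq : ∀ x < L, [x, x] ∈ R ∧ [x, x] ∈ R₀) (hJ : ∀ w ∈ J, w ∈ I ∨ w.reverse ∈ I)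
    (hzJ : rd z = rd J.flatten ∧ ∀ x ∈ J.flatten, x < L) :
    Schur.Low ε.ker 3 := by
  let p : ℕ → G × M := fun x => (s x, t x)
  let Δ := gen p L
  let q : ℕ → Δ := fun x => if h : x < L then ⟨p x, letter_mem_gen h⟩ else 1
  have qv : ∀ x < L, (q x : G × M) = p x := fun x hx => by simp [q, hx]
  have qe : ∀ w : List ℕ, (∀ x ∈ w, x < L) → ((ev q w : Δ) : G × M) = (ev s w, ev t w) := by
    intro w hw
    rw [← Subgroup.subtype_apply, map_ev,
      ev_congr (t := p) fun x hx => (subtype_apply _).trans (qv x (hw x hx))]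
    exact Prod.ext (map_ev p (MonoidHom.fst G M) w) (map_ev p (MonoidHom.snd G M) w)
  have qtop : gen q L = ⊤ := by
    apply map_injective Δ.subtype_injective
    rw [map_genW, ← MonoidHom.range_eq_map, range_subtype]
    exact genW_congr fun w hw x hx => by
      obtain ⟨y, hy, rfl⟩ := mem_letters.mp hw
      rw [List.mem_singleton.mp hx]; exact qv y hy
  let π : Δ →* G := (MonoidHom.fst G M).comp Δ.subtype
  have πq : ∀ x < L, π (q x) = s x := fun x hx => by
    change (q x : G × M).1 = _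
    rw [qv x hx]
  obtain ⟨ζ, hζ⟩ : ∃ ζ, ζ = ev q z := ⟨_, rfl⟩
  have ζv : (ζ : G × M) = (1, ev t z) := by rw [hζ, qe z (hL z hz), hp.sat z hz]
  have ζ3 : ζ ^ 3 = 1 := Subtype.ext (by rw [coe_pow, ζv]; simp [h3])
  have ζπ : π ζ = 1 := congrArg Prod.fst ζv
  have one_of : ∀ w, w ∈ R → w ∈ R₀ → ev q w = 1 := fun w h1 h2 =>
    Subtype.ext (by rw [qe w (hL w h1), hp.sat w h1, ht w h2]; rfl)
  have qq : ∀ x < L, q x * q x = 1 := fun x hx => by
    simpa using one_of _ (hq x hx).1 (hq x hx).2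
  have cj : ∀ γ : Δ, γ * ζ * γ⁻¹ = ζ ^ ((ε (π γ) : ℤˣ) : ℤ) := fun γ => by
    have c1 : ∀ x < L, q x * ζ * (q x)⁻¹ = ζ⁻¹ := fun x hx => by
      rw [mul_inv_eq_iff_eq_mul, eq_inv_mul_iff_mul_eq, ← mul_assoc]
      exact Subtype.ext (by
        rw [coe_mul, coe_mul, ζv, qv x hx]; exact Prod.ext (by simp [p]) (hi x))
    have c2 : ∀ x < L, ∀ g : Δ, g * ζ * g⁻¹ = ζ ^ ((ε (π g) : ℤˣ) : ℤ) →
        (q x * g) * ζ * (q x * g)⁻¹ = ζ ^ ((ε (π (q x * g)) : ℤˣ) : ℤ) := fun x hx g h => by
      calc _ = q x * (g * ζ * g⁻¹) * (q x)⁻¹ := by group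
        _ = _ := by
          rw [h, ← conj_zpow, c1 x hx, map_mul, map_mul, πq x hx, hε x hx]; simp
    refine genW_induction (p := fun g : Δ => g * ζ * g⁻¹ = ζ ^ ((ε (π g) : ℤˣ) : ℤ)) (by simp)
      (fun w hw g h => ?_) (fun w hw g h => ?_) (qtop ▸ mem_top γ : γ ∈ gen q L)
    · obtain ⟨y, hy, rfl⟩ := mem_letters.mp hw
      rw [ev_single]; exact c2 y hy g h
    · obtain ⟨y, hy, rfl⟩ := mem_letters.mp hw
      rw [ev_single, inv_eq_of_mul_eq_one_right (qq y hy)]; exact c2 y hy g h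
  have hN : (zpowers ζ).Normal := ⟨by
    rintro _ ⟨k, rfl⟩ γ
    change γ * ζ ^ k * γ⁻¹ ∈ _
    rw [← conj_zpow, cj]
    exact zpow_mem (zpow_mem (mem_zpowers ζ) _) _⟩
  obtain ⟨α, hα⟩ := hp.univ (Δ ⧸ zpowers ζ) (fun x => QuotientGroup.mk' _ (q x)) fun w hw => by
    rw [← map_ev, QuotientGroup.mk'_apply, QuotientGroup.eq_one_iff]
    rcases hR w hw with h | rfl
    · rw [one_of w hw h]; exact one_mem _
    · exact hζ ▸ mem_zpowers ζ
  have hk : ∀ γ, π γ = 1 → γ ∈ zpowers ζ := fun γ hγ => by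
    have : α.comp π = QuotientGroup.mk' _ := MonoidHom.eq_of_eqOn_dense (show Subgroup.closure _ = ⊤ from qtop) (by
      rintro _ ⟨w, hw, rfl⟩
      obtain ⟨y, hy, rfl⟩ := mem_letters.mp hw
      rw [ev_single, MonoidHom.comp_apply, πq y hy, hα y hy])
    rw [← QuotientGroup.eq_one_iff, ← QuotientGroup.mk'_apply, ← this, MonoidHom.comp_apply, hγ,
      map_one]
  have fz : Finite (zpowers ζ) :=
    finite_zpowers.mpr (isOfFinOrder_iff_pow_eq_one.mpr ⟨3, by norm_num, ζ3⟩)
  have fk : Finite π.ker := Finite.of_injective _ (inclusion_injective (show π.ker ≤ _ from hk))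
  have fq : Finite (Δ ⧸ π.ker) := Finite.of_equiv _ (QuotientGroup.quotientKerEquivRange π).symm.toEquiv
  have fΔ : Finite Δ := Finite.of_subgroup_quotient π.ker
  have πs : Function.Surjective π := by
    rw [← MonoidHom.range_eq_top, eq_top_iff, ← hp.top, gen_le]
    exact fun x hx => ⟨q x, πq x hx⟩
  let Γ := ε.ker.comap π
  let ζ' : Γ := ⟨ζ, by simp [Γ, ζπ]⟩
  have kz : ∀ γ : Γ, γ ∈ (π.subgroupComap ε.ker).ker → γ ∈ zpowers ζ' := fun γ hγ => by
    obtain ⟨k, e⟩ := hk γ (congrArg Subtype.val hγ)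
    exact ⟨k, Subtype.ext e⟩
  refine ⟨Γ, inferInstance, inferInstance, π.subgroupComap ε.ker,
    ⟨π.subgroupComap_surjective_of_surjective _ πs, fun γ hγ => ?_, fun γ hγ => ?_⟩, ?_⟩
  · refine zpowers_le.mpr (mem_center_iff.mpr fun γ => Subtype.ext ?_) (kz γ hγ)
    have := cj γ
    rw [show ε (π γ) = 1 from γ.2, mul_inv_eq_iff_eq_mul] at this
    simpa using this
  · refine zpowers_le.mpr ?_ (kz γ hγ)
    let S := ((powMonoidHom 2).ker.comap (Abelianization.of (G := Γ))).map Γ.subtype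
    have s1 : ∀ w ∈ I, ev q w ∈ S := fun w hw => by
      obtain ⟨h1, h2, h4⟩ := hI w hw
      have hw' : ∀ x ∈ w, x < L := fun x hx => hL _ h2 x (List.mem_append_left _ hx)
      have m : ev q w ∈ Γ := by
        change ε (π (ev q w)) = 1
        rw [← MonoidHom.comp_apply, map_ev,
          ev_congr (t := fun _ => -1) fun x hx => by
            rw [MonoidHom.comp_apply, πq x (hw' x hx), hε x (hw' x hx)]]
        simp [ev, Even.neg_one_pow (Nat.even_iff.mpr h1)]
      refine ⟨⟨_, m⟩, ?_, rfl⟩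
      change Abelianization.of _ ^ 2 = 1
      rw [← map_pow, show (⟨_, m⟩ : Γ) ^ 2 = 1 from Subtype.ext (by
        rw [coe_pow, pow_two, ← ev_append]; exact one_of _ h2 h4), map_one]
    have rv : ∀ w : List ℕ, (∀ x ∈ w, x < L) → ev q w.reverse = (ev q w)⁻¹ := by
      intro w hw
      induction w with
      | nil => simp
      | cons y w ih =>
        rw [List.reverse_cons, ev_append, ih fun x hx => hw x (by simp [hx]), ev_cons, ev_cons,
          ev_nil, mul_one, mul_inv_rev, inv_eq_of_mul_eq_one_right (qq y (hw y (by simp)))]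
    have s2 : ζ ∈ S := by
      rw [hζ, ← ev_rd fun x hx => qq x (hL z hz x hx), hzJ.1, ev_rd fun x hx => qq x (hzJ.2 x hx)]
      clear hzJ
      induction J with
      | nil => exact one_mem _
      | cons w J ih =>
        rw [List.flatten_cons, ev_append]
        refine mul_mem ?_ (ih fun u hu => hJ u (by simp [hu]))
        rcases hJ w (by simp) with h | h
        · exact s1 w h
        · have := inv_mem (s1 _ h)
          rwa [← rv _ fun x hx => hL _ (hI _ h).2.1 x (List.mem_append_left _ hx),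
            List.reverse_reverse] at this
    obtain ⟨y, hy, e⟩ := s2
    have e' : y = ζ' := Subtype.ext e
    have y2 : Abelianization.of ζ' ^ 2 = 1 := e' ▸ hy
    have y3 : Abelianization.of ζ' ^ 3 = 1 := by
      rw [← map_pow, show ζ' ^ 3 = 1 from Subtype.ext ζ3, map_one]
    rw [pow_succ, y2, one_mul] at y3
    rw [← Abelianization.ker_of]
    exact y3
  · have o : orderOf ζ' = 3 := by
      have : Fact (Nat.Prime 3) := ⟨by norm_num⟩
      refine orderOf_eq_prime (Subtype.ext ζ3) fun e => hne ?_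
      have := congrArg (fun γ : Γ => (γ.1 : G × M).2) e
      simpa [ζ', ζv] using this
    rw [← o, ← Nat.card_zpowers]
    exact card_le_of_le (zpowers_le.mpr (Subtype.ext ζπ))

end Cfsg.Agent.Comp.Lab
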