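import Cfsg.Agent.H2.Schur4
import Cfsg.Agent.Schur.Parts

/-!
An upper bound for the kernel of a stem extension of a rank three group from a subgroup over which
the extension splits.
-/

set_option autoImplicit false

namespace Cfsg.Agent.Comp.Rk3
open Subgroup
open scoped commutatorElement

variable {G Γ H : Type*} [Group G] [Group Γ] [Group H]

/-- the data in the group `G` -/
structure Data (ι : H →* G) (g : G) (H1 H2 H3 : Subgroup H) (f1 f2 θ : H) : Prop where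
  inj : Function.Injective ι
  gen : closure (Set.range ι ∪ {g}) = ⊤
  gg : g * g = 1
  ff : f1 * f1 = 1
  br : g * ι f1 * g = ι f1 * g * ι f1
  n1 : ∀ h ∈ H1, ∃ h', g * ι h * g⁻¹ = ι h'
  p1 : H1 ≤ ⁅H1, H1⁆
  d1 : ∀ h, h ∈ H1 ∨ (∃ a ∈ H1, ∃ b ∈ H1, h = a * f1 * b) ∨ ∃ a ∈ H1, ∃ b ∈ H1, h = a * f2 * b
  n2 : ∀ h ∈ H2, ∃ h', (g * ι f2 * g) * ι h * (g * ι f2 * g)⁻¹ = ι h'
  t2 : θ ∈ H2
  p2 : H3 ≤ ⁅H2, H2⁆
  e2 : H2 ≤ H3 ⊔ zpowers θ
  t3 : θ ^ 3 = 1
  d2 : ∀ h, ∃ a ∈ H2, ∃ b ∈ H1, (a⁻¹ * h ∈ H1 ∨ ∃ c ∈ H1, h = a * (b * f1 * c))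
  g1 : g ∉ ι.range
  g2 : g * ι f2 * g ∉ ι.range

variable {σ : Γ →* G} {ι : H →* G} {η : H →* Γ}

theorem cen (hc : σ.ker ≤ center Γ) {a : Γ} (ha : σ a = 1) (x : Γ) : x * a = a * x :=
  mem_center_iff.mp (hc ha) x

theorem conj_mod (hη : ∀ h, σ (η h) = ι h) {t : Γ} {h h' : H}
    (e : σ t * ι h * (σ t)⁻¹ = ι h') : ∃ a, σ a = 1 ∧ t * η h * t⁻¹ = a * η h' :=
  ⟨t * η h * t⁻¹ * (η h')⁻¹, by simp [hη, e], by simp⟩

theorem comm_le (hc : σ.ker ≤ center Γ) (hη : ∀ h, σ (η h) = ι h) {t : Γ} {K : Subgroup H}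
    (hK : ∀ h ∈ K, ∃ h', σ t * ι h * (σ t)⁻¹ = ι h') :
    ⁅K, K⁆ ≤ η.range.comap ((MulAut.conj t).toMonoidHom.comp η) := by
  rw [commutator_le]
  intro x hx y hy
  obtain ⟨x', ex⟩ := hK x hx
  obtain ⟨y', ey⟩ := hK y hy
  obtain ⟨a, ha, e1⟩ := conj_mod hη ex
  obtain ⟨b, hb, e2⟩ := conj_mod hη ey
  refine ⟨⁅x', y'⁆, ?_⟩
  rw [map_commutatorElement, map_commutatorElement]
  change _ = ⁅t * η x * t⁻¹, t * η y * t⁻¹⁆
  rw [e1, e2]
  have ca : ∀ z, Commute z a := cen hc ha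
  have cb : ∀ z, Commute z b := cen hc hb
  simp only [commutatorElement_def, mul_inv_rev]
  have h1 : a * η x' * (b * η y') = η x' * η y' * (a * b) := by
    rw [← (ca (η x')).eq, ← (cb (η y')).eq, mul_assoc, ← mul_assoc a, ← (ca (η y')).eq]
    simp only [mul_assoc]
  have h2 : (η x')⁻¹ * a⁻¹ * ((η y')⁻¹ * b⁻¹) = (a * b)⁻¹ * ((η x')⁻¹ * (η y')⁻¹) := by
    rw [((ca (η x')⁻¹).inv_right).eq, ((cb (η y')⁻¹).inv_right).eq, mul_assoc,
      ← mul_assoc (η x')⁻¹, ((cb (η x')⁻¹).inv_right).eq, (cb a).eq, mul_inv_rev]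
    simp only [mul_assoc]
  rw [h1, mul_assoc (η x' * η y' * (a * b)), h2]
  simp only [mul_assoc, mul_inv_cancel_left]

theorem exists_invol (hs : Function.Surjective σ) (hc : σ.ker ≤ center Γ) {g : G} {y : Γ}
    (gg : g * g = 1) (yy : y * y = 1) (br : g * σ y * g = σ y * g * σ y) :
    ∃ t, σ t = g ∧ t * t = 1 ∧ t * y * t = y * t * y := by
  obtain ⟨x, hx⟩ := hs (σ y * g)
  have ss : σ y * σ y = 1 := by rw [← map_mul, yy, map_one]
  have gi : g⁻¹ = g := inv_eq_of_mul_eq_one_right gg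
  have yi : y⁻¹ = y := inv_eq_of_mul_eq_one_right yy
  have si : (σ y)⁻¹ = σ y := inv_eq_of_mul_eq_one_right ss
  obtain ⟨t, ht, tt⟩ : ∃ t, σ t = g ∧ t * t = 1 := by
    refine ⟨x * y * x⁻¹, ?_, ?_⟩
    · rw [map_mul, map_mul, map_inv, hx, mul_inv_rev, gi, si]
      calc _ = σ y * (g * σ y * g) * σ y := by simp only [mul_assoc]
        _ = (σ y * σ y) * g * (σ y * σ y) := by rw [br]; simp only [mul_assoc]
        _ = g := by rw [ss, one_mul, mul_one]
    · calc _ = x * (y * y) * x⁻¹ := by group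
        _ = 1 := by rw [yy]; group
  have ti : t⁻¹ = t := inv_eq_of_mul_eq_one_right tt
  obtain ⟨b, hb, e⟩ : ∃ b, σ b = 1 ∧ t * y * t = y * t * y * b :=
    ⟨(y * t * y)⁻¹ * (t * y * t), by simp only [map_mul, map_inv, ht, br, inv_mul_cancel],
      (mul_inv_cancel_left _ _).symm⟩
  have cb := cen hc hb
  have bb : b * b = 1 := by
    have h1 : (t * y * t) * (t * y * t) = 1 := by
      calc _ = t * (y * (t * t) * y) * t := by simp only [mul_assoc]
        _ = 1 := by rw [tt, mul_one, yy, mul_one, tt]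
    have h2 : (y * t * y) * (y * t * y) = 1 := by
      calc _ = y * (t * (y * y) * t) * y := by simp only [mul_assoc]
        _ = 1 := by rw [yy, mul_one, tt, mul_one, yy]
    rw [e, mul_assoc, ← mul_assoc b, ← cb, mul_assoc (y * t * y) b, ← mul_assoc (y * t * y), h2,
      one_mul] at h1
    exact h1
  refine ⟨t * b, by rw [map_mul, ht, hb, mul_one], ?_, ?_⟩
  · rw [mul_assoc, ← mul_assoc b, ← cb, mul_assoc, bb, mul_one, tt]
  · calc _ = t * (b * (y * t)) * b := by simp only [mul_assoc]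
      _ = t * y * t * (b * b) := by rw [← cb]; simp only [mul_assoc]
      _ = y * t * (y * b) := by rw [bb, mul_one, e, mul_assoc]
      _ = _ := by rw [cb y]; simp only [mul_assoc]

/-- the kernel is generated by one element of order dividing three -/
theorem Data.ker {g : G} {H1 H2 H3 : Subgroup H} {f1 f2 θ : H} (D : Data ι g H1 H2 H3 f1 f2 θ)
    (hσ : IsStemExtension σ) (hη : ∀ h, σ (η h) = ι h) :
    ∃ α, σ α = 1 ∧ α ^ 3 = 1 ∧ ∀ x, σ x = 1 → x ∈ zpowers α := by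
  have hc := hσ.2.1
  obtain ⟨t, ht, tt, br⟩ := exists_invol hσ.1 hc (y := η f1) D.gg (by rw [← map_mul, D.ff, map_one])
    (by rw [hη]; exact D.br)
  have ti : t⁻¹ = t := inv_eq_of_mul_eq_one_right tt
  have k1 : ∀ h ∈ H1, ∃ h', t * η h = η h' * t ∧ η h * t = t * η h' := fun h hh => by
    obtain ⟨h', e⟩ := comm_le hc hη (t := t) (by rw [ht]; exact D.n1) (D.p1 hh)
    have e' : η h' = t * η h * t⁻¹ := e
    refine ⟨h', by rw [e']; simp, ?_⟩
    rw [e', ti, ← mul_assoc, ← mul_assoc, tt, one_mul]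
  obtain ⟨u, hu⟩ : ∃ u, u = t * η f2 * t := ⟨_, rfl⟩
  have hu' : σ u = g * ι f2 * g := by rw [hu, map_mul, map_mul, ht, hη]
  have n2 : ∀ h ∈ H2, ∃ h', σ u * ι h * (σ u)⁻¹ = ι h' := by rw [hu']; exact D.n2
  obtain ⟨θ', eθ⟩ := n2 θ D.t2
  obtain ⟨α, hα, e1⟩ := conj_mod hη eθ
  have cα := cen hc hα
  have α3 : α ^ 3 = 1 := by
    have h1 : θ' ^ 3 = 1 := D.inj (by
      rw [map_pow, ← eθ, conj_pow, ← map_pow, D.t3, map_one, mul_one, mul_inv_cancel])
    have h2 : (α * η θ') ^ 3 = 1 := by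
      rw [← e1, conj_pow, ← map_pow, D.t3, map_one, mul_one, mul_inv_cancel]
    rwa [(show Commute α (η θ') from (cα _).symm).mul_pow, ← map_pow, h1, map_one, mul_one] at h2
  refine ⟨α, hα, α3, ?_⟩
  have zk : ∀ a ∈ zpowers α, σ a = 1 := fun a ha => zpowers_le.mpr (show α ∈ σ.ker from hα) ha
  let F : Subgroup Γ :=
    { carrier := {x | ∃ a ∈ zpowers α, ∃ h, x = a * η h}
      one_mem' := ⟨1, one_mem _, 1, by simp⟩
      mul_mem' := by
        rintro _ _ ⟨a, ha, h, rfl⟩ ⟨b, hb, k, rfl⟩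
        refine ⟨a * b, mul_mem ha hb, h * k, ?_⟩
        rw [map_mul, mul_assoc, ← mul_assoc (η h), cen hc (zk b hb) (η h)]
        simp only [mul_assoc]
      inv_mem' := by
        rintro _ ⟨a, ha, h, rfl⟩
        exact ⟨a⁻¹, inv_mem ha, h⁻¹, by
          rw [mul_inv_rev, map_inv, cen hc (zk _ (inv_mem ha))]⟩ }
  have Fη : ∀ h, η h ∈ F := fun h => ⟨1, one_mem _, h, by simp⟩
  have k2 : ∀ h ∈ H2, u * η h * u⁻¹ ∈ F := fun h hh => by
    have : H3 ⊔ zpowers θ ≤ F.comap ((MulAut.conj u).toMonoidHom.comp η) := by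
      refine sup_le (fun x hx => ?_) (zpowers_le.mpr ⟨α, mem_zpowers α, θ', e1⟩)
      obtain ⟨x', e⟩ := comm_le hc hη n2 (D.p2 hx)
      exact (show _ ∈ F from e ▸ Fη x')
    exact this (D.e2 hh)
  let S : Γ → Prop := fun x => x ∈ F ∨ (∃ a ∈ F, ∃ h, x = a * t * η h) ∨ ∃ a ∈ F, ∃ h, x = a * u * η h
  have sl : ∀ a ∈ F, ∀ x, S x → S (a * x) := by
    rintro a ha x (h | ⟨b, hb, h, rfl⟩ | ⟨b, hb, h, rfl⟩)
    · exact Or.inl (mul_mem ha h)
    · exact Or.inr (Or.inl ⟨_, mul_mem ha hb, h, by simp only [mul_assoc]⟩)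
    · exact Or.inr (Or.inr ⟨_, mul_mem ha hb, h, by simp only [mul_assoc]⟩)
  have sr : ∀ k x, S x → S (x * η k) := by
    rintro k x (h | ⟨b, hb, h, rfl⟩ | ⟨b, hb, h, rfl⟩)
    · exact Or.inl (mul_mem h (Fη k))
    · exact Or.inr (Or.inl ⟨b, hb, h * k, by simp only [map_mul, mul_assoc]⟩)
    · exact Or.inr (Or.inr ⟨b, hb, h * k, by simp only [map_mul, mul_assoc]⟩)
  have st : S t := Or.inr (Or.inl ⟨1, one_mem _, 1, by simp⟩)
  have su : S u := Or.inr (Or.inr ⟨1, one_mem _, 1, by simp⟩)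
  have mid : ∀ a ∈ H1, ∀ b ∈ H1, ∀ f, S (t * η f * t) → S (t * η (a * f * b) * t) := by
    intro a ha b hb f hf
    obtain ⟨a', ea, -⟩ := k1 a ha
    obtain ⟨b', -, eb⟩ := k1 b hb
    have : t * η (a * f * b) * t = η a' * (t * η f * t) * η b' := by
      rw [map_mul, map_mul, mul_assoc, mul_assoc _ (η b), eb, mul_assoc (η a), ← mul_assoc t, ea]
      simp only [mul_assoc]
    rw [this]
    exact sr _ _ (sl _ (Fη _) _ hf)
  have s2 : ∀ h, S (t * η h * t) := fun h => by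
    rcases D.d1 h with h1 | ⟨a, ha, b, hb, rfl⟩ | ⟨a, ha, b, hb, rfl⟩
    · have := mid h h1 1 (one_mem _) 1 (by rw [map_one, mul_one, tt]; exact Or.inl (one_mem _))
      simpa using this
    · exact mid a ha b hb _ (by rw [br]; exact sr _ _ (sl _ (Fη _) _ st))
    · exact mid a ha b hb _ (hu ▸ su)
  have s3 : ∀ h, S (u * η h * t) := fun h => by
    obtain ⟨a, ha, b, hb, h1⟩ := D.d2 h
    suffices h2 : S (u * η (a⁻¹ * h) * t) by
      have := sl _ (k2 a ha) _ h2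
      simpa [mul_assoc] using this
    rcases h1 with h1 | ⟨c, hc', rfl⟩
    · obtain ⟨b', -, eb⟩ := k1 _ h1
      rw [mul_assoc, eb, ← mul_assoc, hu, mul_assoc _ t t, tt, mul_one]
      exact sr _ _ (sr _ _ st)
    · obtain ⟨b', eb, -⟩ := k1 b hb
      obtain ⟨c', -, ec⟩ := k1 c hc'
      have : u * η (a⁻¹ * (a * (b * f1 * c))) * t = t * η (f2 * b' * f1) * t * η f1 * η c' := by
        calc _ = t * η f2 * (t * η b) * η f1 * (η c * t) := by
              rw [inv_mul_cancel_left, hu, map_mul, map_mul]; simp only [mul_assoc]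
          _ = t * η f2 * η b' * (t * η f1 * t) * η c' := by rw [eb, ec]; simp only [mul_assoc]
          _ = _ := by rw [br, map_mul, map_mul]; simp only [mul_assoc]
      rw [this]
      exact sr _ _ (sr _ _ (s2 _))
  have s4 : ∀ x, S x → S (x * t) := by
    rintro x (h | ⟨b, hb, h, rfl⟩ | ⟨b, hb, h, rfl⟩)
    · exact sl _ h _ st
    · simpa only [mul_assoc] using sl _ hb _ (s2 h)
    · simpa only [mul_assoc] using sl _ hb _ (s3 h)
  have top : closure (Set.range η ∪ {t}) = ⊤ := Cfsg.Agent.H2.Schur.closure_eq_top_of_stem hσ (by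
    rw [Set.image_union, Set.image_singleton, ht, ← Set.range_comp,
      show σ ∘ η = ι from funext hη, D.gen])
  have all : ∀ x, S x := fun x => by
    have hx : x ∈ closure (Set.range η ∪ {t}) := top ▸ mem_top x
    induction hx using closure_induction_right with
    | one => exact Or.inl (one_mem _)
    | mul_right x _ y hy ih =>
      rcases hy with ⟨k, rfl⟩ | rfl
      · exact sr _ _ ih
      · exact s4 _ ih
    | mul_inv_cancel x _ y hy ih =>
      rcases hy with ⟨k, rfl⟩ | rfl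
      · rw [← map_inv]; exact sr _ _ ih
      · rw [ti]; exact s4 _ ih
  intro x hx
  have out : ∀ v a, a ∈ F → ∀ h, x = a * v * η h → σ v ∈ ι.range := by
    rintro v _ ⟨a, ha, k, rfl⟩ h rfl
    simp only [map_mul, zk a ha, one_mul, hη] at hx
    refine ⟨k⁻¹ * h⁻¹, ?_⟩
    rw [map_mul, map_inv, map_inv, ← mul_inv_rev, inv_eq_iff_mul_eq_one, mul_assoc,
      mul_eq_one_comm, hx]
  rcases all x with ⟨a, ha, h, rfl⟩ | ⟨a, ha, h, e⟩ | ⟨a, ha, h, e⟩
  · rw [map_mul, zk a ha, one_mul, hη, ← map_one ι, D.inj.eq_iff] at hx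
    simpa [hx] using ha
  · exact absurd (ht ▸ out t a ha h e) D.g1
  · exact absurd (hu' ▸ out u a ha h e) D.g2

theorem Data.up {G H : Type} [Group G] [Group H] [Group.IsPerfect H] {ι : H →* G} {g : G}
    {H1 H2 H3 : Subgroup H} {f1 f2 θ : H} (D : Data ι g H1 H2 H3 f1 f2 θ)
    (hH : HasCyclicSchurMultiplier H 1) : Schur.Up G (Multiplicative (ZMod 3)) := by
  intro Γ _ _ σ hσ
  obtain ⟨η, hη⟩ := Cfsg.Agent.H2.Schur.exists_lift_of_trivial hH (Cfsg.Agent.H2.Schur.cext_of_stem hσ) ι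
  obtain ⟨α, h1, h2, h3⟩ := D.ker hσ (DFunLike.congr_fun hη)
  let := Schur.kerComm hσ.2.1
  obtain ⟨f, hf⟩ := Schur.exists_hom_zmod (K := σ.ker) (n := 3) ⟨α, h1⟩ (Subtype.ext h2)
  refine ⟨f, fun x => ?_⟩
  obtain ⟨k, hk⟩ := h3 x x.2
  exact ⟨Multiplicative.ofAdd 1 ^ k, by rw [map_zpow, hf]; exact Subtype.ext hk⟩

end Cfsg.Agent.Comp.Rk3
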