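import Cfsg.Agent.Schur.Main

/-! Groups given by consistent polycyclic presentations of `2`-groups. -/

set_option autoImplicit false

namespace Cfsg.Agent.Comp.Pc
open Cfsg.Agent.Comp Cfsg.Agent.Schur Subgroup

variable {G H : Type*} [Group G] [Group H] {n : ℕ} {T T' : List (List (List ℕ))} {D : ℕ → Bool}

/-- the relations among the letters outside `D` -/
def Rel (n : ℕ) (T : List (List (List ℕ))) (D : ℕ → Bool) (s : ℕ → G) : Prop :=
  ∀ g < n, ∀ x ≤ g, D g = false → D x = false → ev s (lhs 2 g x) = ev s (rhs (Wt T) g x)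

/-- the number of letters outside `D` among the last `k` -/
def cnt (D : ℕ → Bool) (n k : ℕ) : ℕ := ((List.range k).filter fun j => !D (n - (j + 1))).length

theorem card_le {y : ℕ → G} (hW : PCShape n (Wt T)) (h0 : ∀ x, D x = true → y x = 1)
    (h : Rel n T D y) : CardLe (gen y n) (2 ^ cnt D n n) := by
  have key : ∀ k ≤ n, CardLe (tl y n (n - k)) (2 ^ cnt D n k) := by
    intro k
    induction k with
    | zero =>
      intro _
      refine CardLe.bot.of_eq ?_
      rw [tl, closure_le]
      rintro _ ⟨j, h1, h2, rfl⟩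
      omega
    | succ k ih =>
      intro hk
      have ih := ih (by omega)
      obtain ⟨x, hx⟩ : ∃ x, x = n - (k + 1) := ⟨_, rfl⟩
      have e : n - k = x + 1 := by omega
      rw [e] at ih
      have hxn : x < n := by omega
      rw [cnt, List.range_succ, List.filter_append, List.length_append, ← cnt, List.filter_singleton,
        ← hx]
      cases hd : D x
      · rw [Bool.not_false, cond_true, List.length_singleton, pow_succ']
        refine (cardLe_sup (a := y x) two_pos ih ?_ ?_).of_eq ?_
        · intro g hg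
          induction hg using closure_induction with
          | mem g hg =>
            obtain ⟨j, h1, h2, rfl⟩ := hg
            cases hj : D j
            · have := h j h2 x (by omega) hj hd
              rw [lhs, rhs, if_neg (by omega), if_neg (by omega)] at this
              simp only [ev_cons, ev_nil, mul_one] at this
              rw [mul_assoc, this, inv_mul_cancel_left]
              exact ev_mem_tl fun z hz => hW j h2 x (by omega) z hz
            · simp [h0 j hj]
          | one => simp
          | mul a b _ _ ha hb =>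
            have := (tl y n (x + 1)).mul_mem ha hb
            simpa [mul_assoc] using this
          | inv a _ ha =>
            have := (tl y n (x + 1)).inv_mem ha
            simpa [mul_assoc] using this
        · have := h x hxn x le_rfl hd hd
          rw [lhs, rhs, if_pos rfl, if_pos rfl, ev_replicate] at this
          rw [this]
          exact ev_mem_tl fun z hz => hW x hxn x le_rfl z hz
        · rw [tl, closure_le]
          rintro _ ⟨j, h1, h2, rfl⟩
          rcases h1.eq_or_lt with rfl | h3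
          · exact mem_sup_left (mem_zpowers _)
          · exact mem_sup_right (subset_closure ⟨j, h3, h2, rfl⟩)
      · refine ih.of_eq ?_
        rw [tl, closure_le]
        rintro _ ⟨j, h1, h2, rfl⟩
        rcases h1.eq_or_lt with rfl | h3
        · rw [h0 _ hd]; exact one_mem _
        · exact subset_closure ⟨j, h3, h2, rfl⟩
  have := key n le_rfl
  rwa [Nat.sub_self, tl_zero] at this

theorem univ {s : ℕ → G} {t : ℕ → H} (hW : PCShape n (Wt T)) (h0 : ∀ x, D x = true → s x = 1)
    (h1 : ∀ x, D x = true → t x = 1) (hs : Rel n T D s) (ht : Rel n T D t)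
    (hc : 2 ^ cnt D n n ≤ Nat.card (gen s n)) : ∃ φ : gen s n →* H,
      (∀ x (hx : x < n), φ ⟨s x, letter_mem_gen hx⟩ = t x) ∧
      ∀ K : Subgroup (G × H), (∀ x < n, (s x, t x) ∈ K) → ∀ y, (y.1, φ y) ∈ K := by
  let p : ℕ → G × H := fun x => (s x, t x)
  have hp : ∀ w, ev p w = (ev s w, ev t w) := fun w =>
    Prod.ext (map_ev (s := p) (MonoidHom.fst G H) w) (map_ev (s := p) (MonoidHom.snd G H) w)
  have hΔ := card_le (y := p) hW (fun x hx => Prod.ext (h0 x hx) (h1 x hx)) fun g hg x hx a b => by
    rw [hp, hp, hs g hg x hx a b, ht g hg x hx a b]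
  have := hΔ.1
  have hm : (gen p n).map (MonoidHom.fst G H) = gen s n := map_genW _ _ _
  let f : gen p n →* gen s n := ((MonoidHom.fst G H).comp (gen p n).subtype).codRestrict _
    fun y => hm ▸ mem_map_of_mem _ y.2
  have hf : Function.Surjective f := fun y => by
    obtain ⟨z, hz, e⟩ := hm.ge y.2
    exact ⟨⟨z, hz⟩, Subtype.ext e⟩
  let e := MulEquiv.ofBijective f (hf.bijective_of_nat_card_le (hΔ.2.trans hc))
  refine ⟨((MonoidHom.snd G H).comp (gen p n).subtype).comp e.symm.toMonoidHom, fun x hx => ?_,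
    fun K hK y => ?_⟩
  · have : e.symm ⟨s x, letter_mem_gen hx⟩ = ⟨p x, letter_mem_gen hx⟩ := e.symm_apply_eq.2 rfl
    exact congrArg (·.1.2) this
  · have h2 : (e.symm y).1.1 = y.1 := congrArg Subtype.val (e.apply_symm_apply y)
    rw [← h2]
    exact gen_le.2 hK (e.symm y).2

/-- `T'` is the table with the letters in `D` made trivial -/
def Cut (n : ℕ) (D : ℕ → Bool) (T T' : List (List (List ℕ))) : Prop :=
  ∀ g < n, ∀ x ≤ g, Wt T' g x = if D g || D x then (if x = g then [] else [g]) else Wt T g x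

noncomputable instance (n : ℕ) (D : ℕ → Bool) (T T' : List (List (List ℕ))) :
    Decidable (Cut n D T T') := by
  unfold Cut; infer_instance

/-- both words collect to the same word -/
noncomputable def eqC (n : Nat) (T : List (List (List Nat))) (u v : List Nat) : Bool :=
  cw n (nat_lit 0) (nat_lit 0) (nat_lit 0) T (pk u) (nat_lit 0) fun w1 _ =>
    cw n (nat_lit 0) (nat_lit 0) (nat_lit 0) T (pk v) (nat_lit 0) fun w2 _ => Nat.beq w1 w2

theorem cw_J (n b J J' : ℕ) (T : List (List (List ℕ))) (hb : b = 0) :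
    cw n 0 b J T = cw n 0 b J' T := by
  subst hb
  have : incP 0 J = incP 0 J' := by
    funext g x; simp [incP, inc]
  unfold cw col
  rw [this]

/-- the setting for collection -/
structure Cx (n : ℕ) (T' : List (List (List ℕ))) (s : ℕ → G) : Prop where
  ctx : Ctx (1 : Unit →* G) s (fun _ => 1) n 0 (tri n) T' []

theorem Cx.of {s : ℕ → G} (hW : PCShape n (Wt T)) (hn : n ≤ 63) (h0 : ∀ x, D x = true → s x = 1)
    (hs : Rel n T D s) (hT : Cut n D T T') : Cx n T' s := ⟨{
  central := by simp
  inj := fun _ _ _ => rfl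
  shape := fun g hg x hx z hz => by
    rw [hT g hg x hx] at hz
    split_ifs at hz with a b
    · simp at hz
    · rw [List.mem_singleton.1 hz]; omega
    · exact hW g hg x hx z hz
  n63 := hn
  nJ := le_rfl
  pc := fun g hg x hx => by
    have := hs g hg x hx
    rw [MonoidHom.one_apply, mul_one]
    unfold rhs at this ⊢
    rw [hT g hg x hx]
    cases a : D g <;> cases b : D x
    · simpa using this a b
    all_goals by_cases e : x = g <;> simp_all [lhs]
  st := fun t => by simp [nth_eq]
  lt := by simp }⟩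

theorem Cx.eq {s : ℕ → G} (H : Cx n T' s) {u v : List ℕ} (hu : ∀ x ∈ u, x < 63)
    (hv : ∀ x ∈ v, x < 63) (h : eqC n T' u v = true) : ev s u = ev s v := by
  unfold eqC at h
  rw [cw_J n _ _ (tri n) _ rfl] at h
  obtain ⟨w1, _, _, -, e1, h⟩ := H.ctx.cw Val.zero h
  obtain ⟨w2, _, _, -, e2, h⟩ := H.ctx.cw Val.zero h
  obtain rfl : w1 = w2 := Nat.eq_of_beq_eq_true h
  simp only [MonoidHom.one_apply, mul_one, (pk_spec s hu).2, (pk_spec s hv).2] at e1 e2
  rw [e1, e2]

/-- substitution of words for letters -/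
noncomputable def sb (A : List (List Nat)) (w : List Nat) : List Nat :=
  @List.rec Nat (fun _ => List Nat) [] (fun a _ ih => nth [] A a ++ ih) w

theorem ev_sb (s : ℕ → G) (A : List (List ℕ)) (w : List ℕ) :
    ev s (sb A w) = ev (fun g => ev s (nth [] A g)) w := by
  induction w with
  | nil => rfl
  | cons a w ih => exact (ev_append _ _ _).trans (congrArg _ ih)

theorem sb_lt {A : List (List ℕ)} (h : ∀ u ∈ A, ∀ x ∈ u, x < 63) (w : List ℕ) :
    ∀ x ∈ sb A w, x < 63 := by
  induction w with
  | nil => nofun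
  | cons a w ih =>
    refine List.forall_mem_append.2 ⟨?_, ih⟩
    rcases nth_mem [] A a with e | e
    · rw [e]; nofun
    · exact h _ e

/-- the substitution preserves the relations in the rows `g₀ ≤ g < g₀ + k` -/
noncomputable def mapB (n : Nat) (T T' : List (List (List Nat))) (D : Nat → Bool)
    (A : List (List Nat)) (g₀ k : Nat) : Bool :=
  allN (fun j => frc (Nat.add g₀ j) fun g => allN (fun x => @Bool.rec (fun _ => Bool)
    (eqC n T' (sb A (lhs 2 g x)) (sb A (rhs (Wt T) g x))) true (D g || D x)) (Nat.succ g)) k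

/-- the substitution preserves the relations in some rows -/
def MapOK (n : ℕ) (T T' : List (List (List ℕ))) (D : ℕ → Bool) (A : List (List ℕ)) (g₀ g₁ : ℕ) :
    Prop := ∀ g, g₀ ≤ g → g < g₁ → ∀ x ≤ g, D g = false → D x = false →
      eqC n T' (sb A (lhs 2 g x)) (sb A (rhs (Wt T) g x)) = true

theorem MapOK.of {A : List (List ℕ)} {g₀ g₁ : ℕ} (k : ℕ) (hk : g₁ = g₀ + k)
    (h : mapB n T T' D A g₀ k = true) : MapOK n T T' D A g₀ g₁ := by
  intro g h0 h1 x hx a b
  have := (allN_eq _ _).mp h (g - g₀) (by omega)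
  rw [frc_eq, allN_eq] at this
  have e : Nat.add g₀ (g - g₀) = g := by show g₀ + (g - g₀) = g; omega
  rw [e] at this
  have := this x (Nat.lt_succ_of_le hx)
  rwa [a, b] at this

theorem MapOK.join {A : List (List ℕ)} {g₀ g₁ g₂ : ℕ} (h : MapOK n T T' D A g₀ g₁)
    (h' : MapOK n T T' D A g₁ g₂) : MapOK n T T' D A g₀ g₂ := fun g h0 h1 =>
  (Nat.lt_or_ge g g₁).elim (h g h0) fun h2 => h' g h2 h1

theorem Cx.rel {s : ℕ → G} (H : Cx n T' s) {A : List (List ℕ)} (hA : ∀ u ∈ A, ∀ x ∈ u, x < 63)
    (h : MapOK n T T' D A 0 n) : Rel n T D fun g => ev s (nth [] A g) := fun g hg x hx a b => by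
  rw [← ev_sb, ← ev_sb]
  exact H.eq (sb_lt hA _) (sb_lt hA _) (h g (Nat.zero_le _) hg x hx a b)

/-- the group on the letters from `k` on -/
def Lv (n : ℕ) (T : List (List (List ℕ))) (k : ℕ) : Prop :=
  ∃ (X : Type) (_ : Group X) (s : ℕ → X), Finite X ∧ Nat.card X = 2 ^ (n - k) ∧ gen s n = ⊤ ∧
    (∀ x < k, s x = 1) ∧ Rel n T (fun x => Nat.blt x k) s

theorem lv_top (n : ℕ) (T : List (List (List ℕ))) : Lv n T n :=
  ⟨Unit, inferInstance, fun _ => 1, inferInstance, by simp, Subsingleton.elim _ _, fun _ _ => rfl,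
    fun _ _ _ _ _ _ => rfl⟩

/-- the small checks of a level -/
noncomputable def lvB (n : Nat) (T T' : List (List (List Nat))) (A : List (List Nat)) (k : Nat) :
    Bool := band (eqC n T' (sb A (Wt T k k)) (Wt T k k))
      (allN (fun g => @Bool.rec (fun _ => Bool)
        (eqC n T' (Wt T k k ++ sb A (nth [] A g)) (g :: Wt T k k)) true (Nat.blt g (Nat.succ k))) n)

theorem Lv.step (ext2 : ∀ {X : Type} [Group X] [Finite X] (α : X →* X) (w : X), α w = w →
      (∀ g, w * α (α g) = g * w) → ∃ (Y : Type) (_ : Group Y) (ι : X →* Y) (t : Y),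
        Function.Injective ι ∧ Nat.card Y = 2 * Nat.card X ∧ (∀ g, ι g * t = t * ι (α g)) ∧
          t * t = ι w ∧ ι.range ⊔ zpowers t = ⊤)
    (hW : PCShape n (Wt T)) (hn : n ≤ 63) {k : ℕ} {A : List (List ℕ)}
    (h1 : k < n ∧ Cut n (fun x => Nat.blt x (k + 1)) T T' ∧ (∀ u ∈ A, ∀ x ∈ u, x < 63) ∧
      (∀ g < n, nth [] A g = if g < k + 1 then [] else Wt T g k) ∧
      cnt (fun x => Nat.blt x (k + 1)) n n = n - (k + 1))
    (h2 : mapB n T T' (fun x => Nat.blt x (k + 1)) A 0 n = true) (h3 : lvB n T T' A k = true)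
    (h : Lv n T (k + 1)) : Lv n T k := by
  obtain ⟨X, _, s, _, hc, htop, h0, hs⟩ := h
  obtain ⟨hk, c1, c2, c3, c4⟩ := h1
  have b1 : ∀ x m, Nat.blt x m = true ↔ x < m := fun x m => by simp [Nat.blt_eq]
  have b2 : ∀ x m, Nat.blt x m = false ↔ m ≤ x := fun x m => by
    rw [← Bool.not_eq_true, b1, not_lt]
  have H := Cx.of hW hn (fun x hx => h0 x ((b1 _ _).1 hx)) hs c1
  obtain ⟨φ, p1, -⟩ := univ (t := fun g => if g < k + 1 then 1 else ev s (nth [] A g)) hW
    (fun x hx => h0 x ((b1 _ _).1 hx)) (fun x hx => if_pos ((b1 _ _).1 hx)) hs (fun g hg x hx a b => by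
      have e : ∀ w : List ℕ, (∀ z ∈ w, z < n) → ev (fun g => if g < k + 1 then 1 else
          ev s (nth [] A g)) w = ev (fun g => ev s (nth [] A g)) w := fun w hw => ev_congr fun z hz => by
        split_ifs with c
        · rw [c3 z (hw z hz), if_pos c, ev_nil]
        · rfl
      rw [e, e]
      · exact H.rel c2 (MapOK.of n (Nat.zero_add n).symm h2) g hg x hx a b
      · unfold rhs; split_ifs
        exacts [fun z hz => (hW g hg x hx z hz).2,
          List.forall_mem_cons.2 ⟨by omega, fun z hz => (hW g hg x hx z hz).2⟩]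
      · unfold lhs; split_ifs <;> simp <;> omega)
    (by rw [c4, htop, card_top, hc])
  let α : X →* X := φ.comp ((MonoidHom.id X).codRestrict _ fun x => htop ▸ mem_top x)
  have a1 : ∀ x < n, α (s x) = ev s (nth [] A x) := fun x hx => (p1 x hx).trans (by
    split_ifs with c
    · rw [c3 x hx, if_pos c, ev_nil]
    · rfl)
  have a2 : ∀ w : List ℕ, (∀ z ∈ w, z < n) → α (ev s w) = ev s (sb A w) := fun w hw => by
    rw [map_ev, ev_sb]; exact ev_congr fun z hz => a1 z (hw z hz)
  have w1 : ∀ g < n, k ≤ g → ∀ z ∈ Wt T g k, k < z ∧ z < n := fun g hg h => hW g hg k h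
  have w2 : ∀ z ∈ Wt T k k, z < 63 := fun z hz => by have := w1 k hk le_rfl z hz; omega
  obtain ⟨d1, d2⟩ := (band_eq _ _).1 h3
  obtain ⟨Y, _, ι, t, i1, i2, i3, i4, i5⟩ := ext2 α (ev s (Wt T k k))
    ((a2 _ fun z hz => (w1 k hk le_rfl z hz).2).trans (H.eq (sb_lt c2 _) w2 d1)) fun g => by
      have : gen s n ≤ ((MulAut.conj (ev s (Wt T k k))).toMonoidHom.comp (α.comp α)).eqLocus
          (MonoidHom.id X) := gen_le.2 fun x hx => by
        rcases Nat.lt_or_ge x (k + 1) with c | c
        · rw [h0 x c]; exact one_mem _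
        have e0 := (allN_eq _ _).1 d2 x hx
        rw [(b2 x k.succ).2 c] at e0
        have e := H.eq (List.forall_mem_append.2 ⟨w2, sb_lt c2 _⟩)
          (List.forall_mem_cons.2 ⟨by omega, w2⟩) e0
        rw [ev_append, ev_cons, ← a2 _ (by
          rw [c3 x hx]; split_ifs
          exacts [nofun, fun z hz => (w1 x hx (by omega) z hz).2]), ← a1 x hx] at e
        exact mul_inv_eq_iff_eq_mul.2 e
      exact mul_inv_eq_iff_eq_mul.1 (this (htop ▸ mem_top g))
  have hY : Finite Y := Nat.finite_of_card_ne_zero (by rw [i2, hc]; positivity)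
  have e : ∀ w : List ℕ, (∀ z ∈ w, k < z) → ev (fun x => if x = k then t else ι (s x)) w =
      ι (ev s w) := fun w hw => by
    rw [map_ev]; exact ev_congr fun z hz => if_neg (hw z hz).ne'
  refine ⟨Y, inferInstance, fun x => if x = k then t else ι (s x), hY, ?_, ?_, fun x hx => ?_,
    fun g hg x hx a b => ?_⟩
  · rw [i2, hc, ← pow_succ']; congr 1; omega
  · rw [eq_top_iff, ← i5, sup_le_iff, zpowers_le, MonoidHom.range_eq_map, ← htop, map_le_iff_le_comap]
    have hh := letter_mem_gen (s := fun x => (if x = k then t else ι (s x))) hk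
    refine ⟨gen_le.2 fun x hx => ?_, by simpa using hh⟩
    by_cases c : x = k
    · rw [h0 x (by omega)]; exact one_mem _
    · simpa [c] using letter_mem_gen (s := fun x => (if x = k then t else ι (s x))) hx
  · exact (if_neg hx.ne).trans (by rw [h0 x (by omega), map_one])
  · rw [b2] at a b
    rcases b.eq_or_lt with rfl | c
    · rcases hx.eq_or_lt with rfl | c
      · rw [lhs, rhs, if_pos rfl, if_pos rfl, ev_replicate, if_pos rfl, sq, i4,
          e _ fun z hz => (w1 _ hk le_rfl z hz).1]
      · rw [lhs, rhs, if_neg c.ne, if_neg c.ne, ev_cons, ev_cons, ev_cons, ev_nil, mul_one,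
          if_neg c.ne', if_pos rfl, i3, a1 g hg, c3 g hg, if_neg (by omega),
          e _ fun z hz => (w1 g hg hx z hz).1]
    · rw [e, e, hs g hg x hx ((b2 _ _).2 (by omega)) ((b2 _ _).2 c)]
      · unfold rhs; split_ifs
        exacts [fun z hz => c.trans (hW g hg x hx z hz).1,
          List.forall_mem_cons.2 ⟨c, fun z hz => c.trans (hW g hg x hx z hz).1⟩]
      · unfold lhs; split_ifs <;> simp <;> omega

/-- the letters in `D` made trivial -/
def cut (D : ℕ → Bool) (s : ℕ → G) (k : ℕ) : G := if D k then 1 else s k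

theorem ev_cut {s : ℕ → G} {w : List ℕ} (h : ∀ z ∈ w, D z = false) : ev (cut D s) w = ev s w :=
  ev_congr fun z hz => by simp [cut, h z hz]

/-- the letter `a` normalises the group on the letters outside `D` -/
noncomputable def nrmB (n : Nat) (T : List (List (List Nat))) (D : Nat → Bool) (a : Nat)
    (V : List (List Nat)) : Bool := band (eqC n T [a, a] (nth [] V a)) (allN (fun k =>
      @Bool.rec (fun _ => Bool) (eqC n T [k, a] (a :: nth [] V k)) true (D k)) n)

theorem Cx.card_cut [Finite G] {s : ℕ → G} (H : Cx n T s) (hn : n ≤ 63) {D' : ℕ → Bool} {a : ℕ}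
    {V : List (List ℕ)} (h1 : a < n ∧ (∀ k < n, D k = true → D' k = true ∨ k = a) ∧
      ∀ k < n, ∀ z ∈ nth [] V k, D z = false ∧ z < n) (h2 : nrmB n T D a V = true) :
    Nat.card (gen (cut D' s) n) ≤ 2 * Nat.card (gen (cut D s) n) := by
  obtain ⟨ha, hD, hV⟩ := h1
  obtain ⟨d1, d2⟩ := (band_eq _ _).1 h2
  have m : ∀ k < n, ev s (nth [] V k) ∈ gen (cut D s) n := fun k hk => by
    rw [← ev_cut fun z hz => (hV k hk z hz).1]
    exact ev_mem fun z hz => letter_mem_gen (hV k hk z hz).2
  have l : ∀ k < n, ∀ z ∈ nth [] V k, z < 63 := fun k hk z hz => (hV k hk z hz).2.trans_le hn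
  refine ((cardLe_sup (a := s a) two_pos (N := gen (cut D s) n) ⟨inferInstance, le_rfl⟩ ?_ ?_).of_eq
    (gen_le.2 fun k hk => ?_)).2
  · intro g hg
    have : gen (cut D s) n ≤ (gen (cut D s) n).comap (MulAut.conj (s a)⁻¹).toMonoidHom :=
      gen_le.2 fun k hk => by
        cases c : D k
        · have e0 := (allN_eq _ _).1 d2 k hk
          rw [c] at e0
          have e := H.eq (by simp; omega) (List.forall_mem_cons.2 ⟨by omega, l k hk⟩) e0
          simp only [ev_cons, ev_nil, mul_one] at e
          simpa [cut, c, mul_assoc, e] using m k hk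
        · simp [cut, c]
    simpa using this hg
  · have e := H.eq (by simp; omega) (l a ha) d1
    simp only [ev_cons, ev_nil, mul_one] at e
    rw [sq, e]; exact m a ha
  · cases c' : D' k
    · cases c : D k
      · exact mem_sup_right (by simpa [cut, c, c'] using letter_mem_gen (s := cut D s) hk)
      · obtain rfl := (hD k hk c).resolve_left (by simp [c'])
        exact mem_sup_left (by simp [cut, c'])
    · simp [cut, c']

end Cfsg.Agent.Comp.Pc
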